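/-
Standard subgroups whose centralizer has cyclic Sylow 2-subgroups (S3148), abstract part 1: an involution `t` with a
subgroup `M` of index at most two in `C(t)` that avoids the other conjugates of `t`; the conjugates of `t` in a Sylow
2-subgroup generate a dihedral group.
-/
import Cfsg.Agent.Cit.Basic
import Cfsg.Agent.Grp.SylowIn
import Cfsg.Agent.Fus.Meta2

set_option autoImplicit false
set_option linter.unusedSectionVars false

open Cfsg Subgroup CL.Cit CL.Grp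

namespace CL.C148

variable {G : Type*} [Group G] {u t x y c g δ ε τ σ : G} {M : Subgroup G} {T : Sylow 2 G}

/-! ### Cyclic 2-groups -/

theorem comm_zp (hx : x ∈ zpowers u) (hy : y ∈ zpowers u) : x * y = y * x := by
  obtain ⟨i, rfl⟩ := hx; obtain ⟨j, rfl⟩ := hy; exact (Commute.zpow_zpow_self u i j).eq

theorem conj_zp (h : g * u * g⁻¹ ∈ zpowers u) (hx : x ∈ zpowers u) : g * x * g⁻¹ ∈ zpowers u := by
  obtain ⟨i, rfl⟩ := hx; rw [← conj_zpow]; exact zpow_mem h i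

theorem conj_zp_self (h : g * u * g⁻¹ ∈ zpowers u) (hx : x ∈ zpowers u) : g * x * g⁻¹ ∈ zpowers x := by
  obtain ⟨i, rfl⟩ := hx
  obtain ⟨j, hj⟩ := h
  exact ⟨j, by simp only [] at hj ⊢; rw [← conj_zpow, ← hj, ← zpow_mul, ← zpow_mul, mul_comm]⟩

theorem inv_zp (h : g * u * g⁻¹ = u⁻¹) (hx : x ∈ zpowers u) : g * x * g⁻¹ = x⁻¹ := by
  obtain ⟨i, rfl⟩ := hx; rw [← conj_zpow, h, inv_zpow]

theorem fix_zp (h : g * u * g⁻¹ = u) (hx : x ∈ zpowers u) : g * x * g⁻¹ = x := by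
  obtain ⟨i, rfl⟩ := hx; rw [← conj_zpow, h]

theorem mem_zp_odd (h : Two x) {r : ℤ} (hr : Odd r) : x ∈ zpowers (x ^ r) := by
  refine h.mem_of_pow_odd (Int.natAbs_odd.2 hr) ?_
  rcases Int.natAbs_eq r with e | e
  · exact ⟨1, by simp only [zpow_one]; rw [← zpow_natCast, ← e]⟩
  · exact ⟨-1, by simp only [zpow_neg, zpow_one]; rw [← zpow_natCast, ← zpow_neg]; congr 1; omega⟩

theorem eq_one_of_zpow (h : Two x) {r : ℤ} (hr : Odd r) (e : x ^ r = 1) : x = 1 := by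
  simpa [e] using mem_zp_odd h hr

theorem two_zp (hu : Two u) (hx : x ∈ zpowers u) : Two x := two_of_mem hu.isPGroup hx

theorem sq_or_gen (hu : Two u) (hx : x ∈ zpowers u) : (∃ d ∈ zpowers u, x = d * d) ∨ u ∈ zpowers x := by
  obtain ⟨i, rfl⟩ := hx
  rcases Int.even_or_odd i with ⟨k, rfl⟩ | hi
  · exact Or.inl ⟨u ^ k, ⟨k, rfl⟩, zpow_add u k k⟩
  · exact Or.inr (mem_zp_odd hu hi)

theorem mem_zp_invol (ht : t * t = 1) (hx : x ∈ zpowers t) : x = 1 ∨ x = t := by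
  obtain ⟨i, rfl⟩ := hx
  have h2 : ∀ k : ℤ, t ^ (k + k) = 1 := fun k => by rw [zpow_add, ← (Commute.refl t).mul_zpow, ht, one_zpow]
  rcases Int.even_or_odd i with ⟨k, rfl⟩ | ⟨k, rfl⟩
  · exact Or.inl (h2 k)
  · exact Or.inr (by simp only []; rw [zpow_add, two_mul, h2, one_mul, zpow_one])

theorem chain [Finite G] (hu : Two u) (hx : x ∈ zpowers u) (hy : y ∈ zpowers u) :
    x ∈ zpowers y ∨ y ∈ zpowers x := by
  rcases CL.Fus.mem_zpowers_or_of_isCyclic hu.isPGroup ⟨x, hx⟩ ⟨y, hy⟩ with ⟨k, hk⟩ | ⟨k, hk⟩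
  · exact Or.inl ⟨k, congrArg Subtype.val hk⟩
  · exact Or.inr ⟨k, congrArg Subtype.val hk⟩

theorem invol_zp [Finite G] (hu : Two u) (ht : t ∈ zpowers u) (t2 : t * t = 1) (t1 : t ≠ 1) (hx : x ∈ zpowers u)
    (x2 : x * x = 1) : x = 1 ∨ x = t := by
  rcases chain hu hx ht with h | h
  · exact mem_zp_invol t2 h
  · exact Or.inr ((mem_zp_invol x2 h).resolve_left t1).symm

/-- An automorphism of order at most two of a cyclic 2-group fixes or inverts all squares. -/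
theorem aut2 (hu : Two u) (h : g * u * g⁻¹ ∈ zpowers u) (h2 : g * (g * u * g⁻¹) * g⁻¹ = u) :
    (∀ c ∈ zpowers u, g * (c * c) * g⁻¹ = c * c) ∨ ∀ c ∈ zpowers u, g * (c * c) * g⁻¹ = (c * c)⁻¹ := by
  obtain ⟨i, hi⟩ := h
  simp only [] at hi
  have e : u ^ (i * i - 1) = 1 := by
    rw [zpow_sub, zpow_mul, zpow_one, mul_inv_eq_one]
    rw [← hi, ← conj_zpow, ← hi] at h2
    exact h2
  have hs : ∀ c ∈ zpowers u, c * c ∈ zpowers (u * u) := by
    rintro c ⟨k, rfl⟩; exact ⟨k, (Commute.refl u).mul_zpow k⟩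
  have e2 : g * (u * u) * g⁻¹ = u ^ (2 * i) := by rw [two_mul, zpow_add, hi]; group
  rcases Int.even_or_odd i with hi' | ⟨k, rfl⟩
  · obtain rfl : u = 1 := eq_one_of_zpow hu ((hi'.mul_right i).sub_odd odd_one) e
    exact Or.inl fun c hc => by obtain ⟨k, rfl⟩ := hc; simp
  rcases Int.even_or_odd k with hk | hk
  · have : u ^ (4 * k) = 1 := eq_one_of_zpow (two_zp hu ⟨_, rfl⟩) hk.add_one (by
      rw [← zpow_mul, ← e]; congr 1; ring)
    refine Or.inl fun c hc => fix_zp ?_ (hs c hc)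
    rw [e2, show 2 * (2 * k + 1) = 4 * k + 1 + 1 by ring, zpow_add, zpow_add, this]; simp
  · have : u ^ (4 * (k + 1)) = 1 := eq_one_of_zpow (two_zp hu ⟨_, rfl⟩) hk (by
      rw [← zpow_mul, ← e]; congr 1; ring)
    refine Or.inr fun c hc => inv_zp ?_ (hs c hc)
    rw [e2, show 2 * (2 * k + 1) = 4 * (k + 1) + -1 + -1 by ring, zpow_add, zpow_add, this]; simp

/-! ### The hypothesis -/

/-- An involution `t` with a subgroup of index at most two in `C(t)` avoiding the other conjugates of `t`. -/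
structure Hyp (t : G) (M : Subgroup G) : Prop where
  sq : t * t = 1
  ne : t ≠ 1
  le : ∀ g ∈ M, g * t = t * g
  idx : ∀ g h : G, g * t = t * g → h * t = t * h → g ∉ M → h ∉ M → g * h ∈ M
  out : ∀ s : G, IsConj t s → s ≠ t → s * t = t * s → s ∉ M
  root : ∀ P : Subgroup G, IsPGroup 2 P → (∀ p ∈ P, p * t = t * p) →
    ∃ y : G, y * y = t ∧ ∀ p ∈ P, (p ∈ M → p * y = y * p) ∧ (p ∉ M → p * y * p⁻¹ = y⁻¹)

/-- The conjugate of `M` that belongs to the conjugate `τ` of `t`. -/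
def Mc (t : G) (M : Subgroup G) (τ : G) : Subgroup G where
  carrier := {x | ∀ g : G, g * τ * g⁻¹ = t → g * x * g⁻¹ ∈ M}
  mul_mem' ha hb g hg := by rw [← conj_mul]; exact M.mul_mem (ha g hg) (hb g hg)
  one_mem' g _ := by simp
  inv_mem' ha g hg := by rw [← conj_inv]; exact M.inv_mem (ha g hg)

theorem Mc_conj (h : x ∈ Mc t M τ) (k : G) : k * x * k⁻¹ ∈ Mc t M (k * τ * k⁻¹) := fun g hg => by
  have := h (g * k) (by rw [← hg]; group)
  rwa [show g * (k * x * k⁻¹) * g⁻¹ = g * k * x * (g * k)⁻¹ by group]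

theorem comm_conj (h : x * y = y * x) (g : G) : g * x * g⁻¹ * (g * y * g⁻¹) = g * y * g⁻¹ * (g * x * g⁻¹) := by
  rw [conj_mul, conj_mul, h]

theorem isConj_conj (h : IsConj x y) (g : G) : IsConj x (g * y * g⁻¹) := h.trans (isConj_iff.2 ⟨g, rfl⟩)

theorem conj_of_comm (h : g * x = x * g) : g * x * g⁻¹ = x := by rw [h, mul_inv_cancel_right]

namespace Hyp

variable (h : Hyp t M)
include h

theorem inv : t⁻¹ = t := inv_eq_of_mul_eq_one_right h.sq

theorem sq_of_conj (hs : IsConj t τ) : τ * τ = 1 := by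
  obtain ⟨g, rfl⟩ := isConj_iff.1 hs; rw [conj_mul, h.sq]; simp

theorem ne_of_conj (hs : IsConj t τ) : τ ≠ 1 := fun e => h.ne (isConj_one_left.1 (e ▸ hs))

theorem conjM (hc : c * t = t * c) (hx : x ∈ M) : c * x * c⁻¹ ∈ M := by
  by_cases h1 : c ∈ M
  · exact M.mul_mem (M.mul_mem h1 hx) (M.inv_mem h1)
  by_contra h2
  have e : c * x * c⁻¹ * t = t * (c * x * c⁻¹) := by
    have := comm_conj (h.le x hx) c
    rwa [conj_of_comm hc] at this
  have := h.idx _ _ e hc h2 h1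
  rw [inv_mul_cancel_right] at this
  exact h1 ((M.mul_mem_cancel_right hx).1 this)

theorem mem_Mc (hg : g * τ * g⁻¹ = t) : x ∈ Mc t M τ ↔ g * x * g⁻¹ ∈ M := by
  refine ⟨fun hx => hx g hg, fun hx k hk => ?_⟩
  have e : k * g⁻¹ * t = t * (k * g⁻¹) := by
    conv_lhs => rw [← hg]
    conv_rhs => rw [← hk]
    group
  have := h.conjM e hx
  rwa [show k * g⁻¹ * (g * x * g⁻¹) * (k * g⁻¹)⁻¹ = k * x * k⁻¹ by group] at this

theorem Mc_self : x ∈ Mc t M t ↔ x ∈ M := by simpa using h.mem_Mc (g := 1) (x := x) (τ := t) (by simp)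

theorem idx' (hτ : IsConj t τ) (hx : x * τ = τ * x) (hy : y * τ = τ * y) (h1 : x ∉ Mc t M τ) (h2 : y ∉ Mc t M τ) :
    x * y ∈ Mc t M τ := by
  obtain ⟨g, hg⟩ := isConj_iff.1 hτ.symm
  rw [h.mem_Mc hg] at h1 h2 ⊢
  rw [← conj_mul]
  exact h.idx _ _ (hg ▸ comm_conj hx g) (hg ▸ comm_conj hy g) h1 h2

theorem out' (hτ : IsConj t τ) (hσ : IsConj t σ) (hne : σ ≠ τ) (hc : σ * τ = τ * σ) : σ ∉ Mc t M τ := by
  obtain ⟨g, hg⟩ := isConj_iff.1 hτ.symm
  rw [h.mem_Mc hg]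
  exact h.out _ (isConj_conj hσ g) (fun e => hne (by simpa using e.trans hg.symm)) (hg ▸ comm_conj hc g)

theorem not_sq (hτ : IsConj t τ) (hσ : IsConj t σ) (hne : σ ≠ τ) (hc : x * τ = τ * x) (e : x * x = σ) : False := by
  refine h.out' hτ hσ hne (by rw [← e, mul_assoc, hc, ← mul_assoc, hc, mul_assoc]) ?_
  rw [← e]
  by_cases h1 : x ∈ Mc t M τ
  · exact mul_mem h1 h1
  · exact h.idx' hτ hc hc h1 h1

/-- A Sylow 2-subgroup of `G` centralizes `t`. -/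
theorem exists_sylow [Finite G] (hs : IsConj t σ) (hc : σ * t = t * σ) :
    ∃ T : Sylow 2 G, (∀ p ∈ T, p * t = t * p) ∧ σ ∈ T := by
  obtain ⟨S, hS, hle⟩ := exists_isSylowIn_ge (two_of_sq (h.sq_of_conj hs)).isPGroup
    (zpowers_le.2 (mem_centralizer_singleton_iff.2 hc))
  have hC : ∀ p ∈ S, p * t = t * p := fun p hp => mem_centralizer_singleton_iff.1 (hS.le hp)
  obtain ⟨T, hT⟩ := hS.isPGroup.exists_le_sylow
  refine ⟨T, fun p hp => hC p ?_, hT (hle (mem_zpowers σ))⟩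
  by_contra hn
  obtain ⟨g, hg, hgS⟩ := SetLike.exists_of_lt (lt_inf_normalizer_of_isPGroup T.isPGroup'
    (lt_of_le_of_ne hT fun e => hn (e ▸ hp)))
  have key : ∀ k ∈ T, k * t = t * k → k ∈ S := fun k hk e => by
    have : (T : Subgroup G) ⊓ centralizer {t} = S := hS.eq_of_le (T.isPGroup'.to_inf_left) (le_inf hT hS.le) inf_le_right
    exact this ▸ ⟨hk, mem_centralizer_singleton_iff.2 e⟩
  obtain ⟨y, y2, hy⟩ := h.root S hS.isPGroup hC
  have yt : y * t = t * y := by rw [← y2, mul_assoc]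
  have hmem : ∀ z, Two z → z * t = t * z → (∀ p ∈ S, p * z * p⁻¹ ∈ zpowers z) → z ∈ S := fun z hz e hn => by
    have h1 : S ≤ normalizer (zpowers z : Set G) := fun p hp =>
      Subgroup.mem_normalizer_fintype fun n hn' => conj_zp (hn p hp) hn'
    have := hS.eq_of_le (CL.Even.isPGroup_sup hS.isPGroup hz.isPGroup h1) le_sup_left
      (sup_le hS.le (zpowers_le.2 (mem_centralizer_singleton_iff.2 e)))
    exact this ▸ mem_sup_right (mem_zpowers z)
  have yS : y ∈ S := hmem y (Two.of_mul_self (y2 ▸ two_of_sq h.sq)) yt fun p hp => by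
    by_cases hM : p ∈ M
    · rw [conj_of_comm ((hy p hp).1 hM)]; exact mem_zpowers y
    · rw [(hy p hp).2 hM]; exact inv_mem (mem_zpowers y)
  have tS : t ∈ S := y2 ▸ mul_mem yS yS
  have h1 : g * t * g⁻¹ ∈ S := (mem_normalizer_iff.1 hg.2 t).1 tS
  have h2 : g * t * g⁻¹ ≠ t := fun e => hgS (key g hg.1 (by rw [mul_inv_eq_iff_eq_mul] at e; exact e))
  have h3 := (hy _ h1).2 (h.out _ (isConj_iff.2 ⟨g, rfl⟩) h2 (hC _ h1))
  have h4 := comm_conj (hC _ ((mem_normalizer_iff.1 (inv_mem hg.2) y).1 yS)) g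
  rw [show g * (g⁻¹ * y * g⁻¹⁻¹) * g⁻¹ = y by group] at h4
  rw [conj_of_comm h4.symm] at h3
  exact h.ne (by rw [← y2]; nth_rw 2 [h3]; simp)

end Hyp

/-- The conjugates of `t` in `T` other than `t`. -/
def D (t : G) (T : Sylow 2 G) (ε : G) : Prop := ε ∈ T ∧ IsConj t ε ∧ ε ≠ t

/-- `T` centralizes `t`. -/
structure Pre (t : G) (M : Subgroup G) (T : Sylow 2 G) : Prop extends Hyp t M where
  cen : ∀ p ∈ T, p * t = t * p

namespace Pre

variable (h : Pre t M T)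
include h

theorem conj_t {p : G} (hp : p ∈ T) : p * t * p⁻¹ = t := conj_of_comm (h.cen p hp)

theorem D_conj (hε : D t T ε) {p : G} (hp : p ∈ T) : D t T (p * ε * p⁻¹) :=
  ⟨mul_mem (mul_mem hp hε.1) (inv_mem hp), isConj_conj hε.2.1 p, fun e => hε.2.2 (by
    simpa using e.trans (h.conj_t hp).symm)⟩

theorem D_sq (hε : D t T ε) : ε * ε = 1 := h.sq_of_conj hε.2.1

theorem D_inv (hε : D t T ε) : ε⁻¹ = ε := inv_eq_of_mul_eq_one_right (h.D_sq hε)

theorem D_not (hε : D t T ε) : ε ∉ M := h.out ε hε.2.1 hε.2.2 (h.cen ε hε.1)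

theorem exists_root : ∃ y ∈ T, y * y = t ∧ ∀ p ∈ T, (p ∈ M → p * y = y * p) ∧ (p ∉ M → y * p * y⁻¹ = p * t) := by
  obtain ⟨y, y2, hy⟩ := h.root T T.isPGroup' h.cen
  have hn : (T : Subgroup G) ≤ normalizer (zpowers y : Set G) := fun p hp => by
    have : ∀ q ∈ T, ∀ n ∈ zpowers y, q * n * q⁻¹ ∈ zpowers y := fun q hq n hn => conj_zp (by
      by_cases hM : q ∈ M
      · rw [conj_of_comm ((hy q hq).1 hM)]; exact mem_zpowers y
      · rw [(hy q hq).2 hM]; exact inv_mem (mem_zpowers y)) hn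
    exact mem_normalizer_iff.2 fun n => ⟨this p hp n, fun hn => by simpa [mul_assoc] using this _ (inv_mem hp) _ hn⟩
  have := T.is_maximal' (CL.Even.isPGroup_sup T.isPGroup' (Two.of_mul_self (y2 ▸ two_of_sq h.sq)).isPGroup hn)
    le_sup_left
  have yT : y ∈ (T : Subgroup G) := this ▸ mem_sup_right (mem_zpowers y)
  refine ⟨y, yT, y2, fun p hp => ⟨(hy p hp).1, fun hM => ?_⟩⟩
  have e := (hy p⁻¹ (inv_mem hp)).2 fun h' => hM (inv_mem_iff.1 h')
  calc y * p * y⁻¹ = p * (p⁻¹ * y * p⁻¹⁻¹) * y⁻¹ := by group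
    _ = p * (y * y)⁻¹ := by rw [e]; group
    _ = p * t := by rw [y2, h.inv]

theorem t_mem : t ∈ T := by obtain ⟨y, hy, y2, -⟩ := h.exists_root; exact y2 ▸ mul_mem hy hy

theorem D_mul (hε : D t T ε) : D t T (ε * t) := by
  obtain ⟨y, hy, -, e⟩ := h.exists_root
  rw [← (e ε hε.1).2 (h.D_not hε)]; exact h.D_conj hε hy

theorem D_comm (hδ : D t T δ) (hε : D t T ε) (hc : ε * δ = δ * ε) : ε = δ ∨ ε = δ * t := by
  by_contra hn
  obtain ⟨h1, h2⟩ := not_or.1 hn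
  obtain ⟨y, hy, -, e⟩ := h.exists_root
  have h3 := h.D_mul hδ
  have c1 : ε * (δ * t) = δ * t * ε := by rw [← mul_assoc, hc, mul_assoc, h.cen ε hε.1, mul_assoc]
  have h4 := h.idx' h3.2.1 c1 (h.cen _ h3.1).symm (h.out' h3.2.1 hε.2.1 h2 c1)
    (h.out' h3.2.1 (IsConj.refl t) h3.2.2.symm (h.cen _ h3.1).symm)
  have h5 := Mc_conj h4 y⁻¹
  rw [← (e ε hε.1).2 (h.D_not hε), ← (e δ hδ.1).2 (h.D_not hδ)] at h5
  exact h.out' hδ.2.1 hε.2.1 h1 hc (by simpa [mul_assoc] using h5)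

theorem D_nsq (hδ : D t T δ) (hc : x * δ = δ * x) : x * x ≠ t :=
  h.not_sq hδ.2.1 (IsConj.refl t) hδ.2.2.symm hc

section Pair

variable (hδ : D t T δ) (hu : D t T (δ * u))
include hδ hu

theorem u_mem : u ∈ T := by
  have := mul_mem (inv_mem hδ.1) hu.1
  rwa [inv_mul_cancel_left] at this

theorem two_u : Two u := two_of_mem T.isPGroup' (h.u_mem hδ hu)

theorem inv_u : δ * u * δ⁻¹ = u⁻¹ := by
  rw [h.D_inv hδ, eq_inv_iff_mul_eq_one, mul_assoc]; exact h.D_sq hu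

theorem D_zp (hc : c ∈ zpowers u) : D t T (δ * c) := by
  have hi := fun c hc => inv_zp (x := c) (h.inv_u hδ hu) hc
  obtain ⟨i, rfl⟩ := hc
  have hk : ∀ k : ℤ, (u ^ k)⁻¹ ∈ T := fun k => inv_mem (zpow_mem (h.u_mem hδ hu) k)
  rcases Int.even_or_odd i with ⟨k, rfl⟩ | ⟨k, rfl⟩
  · have := h.D_conj hδ (hk k)
    rw [← hi _ ⟨k, rfl⟩] at this
    convert this using 1
    rw [hi _ ⟨k, rfl⟩, inv_inv, ← hi _ ⟨k, rfl⟩]; simp only []; group
  · have := h.D_conj hu (hk k)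
    convert this using 1
    rw [inv_inv, ← hi _ ⟨k, rfl⟩]; simp only []; group

variable [Finite G]

theorem invol (ht : t ∈ zpowers u) (hx : x ∈ zpowers u) (x2 : x * x = 1) : x = 1 ∨ x = t :=
  invol_zp (h.two_u hδ hu) ht h.sq h.ne hx x2

theorem sqrt (ht : t ∈ zpowers u) (hx : x ∈ zpowers u) (hy : y ∈ zpowers u) (e : x * x = y * y) :
    x = y ∨ x = y * t := by
  have c := comm_zp hx hy
  rcases h.invol hδ hu ht (mul_mem (inv_mem hy) hx) (by
    calc y⁻¹ * x * (y⁻¹ * x) = y⁻¹ * y⁻¹ * (y * x) * (y⁻¹ * x) := by group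
      _ = y⁻¹ * y⁻¹ * (x * x) := by rw [← c]; group
      _ = 1 := by rw [e]; group) with h1 | h1
  · exact Or.inl (inv_mul_eq_one.1 h1).symm
  · exact Or.inr (by rw [← h1]; group)

/-- If `g` moves `δ` by a square of `⟨u⟩`, it fixes some `δ c` modulo `t`. -/
theorem even_case (ht : t ∈ zpowers u) (h1 : g * u * g⁻¹ ∈ zpowers u) (h2 : g * (g * u * g⁻¹) * g⁻¹ = u) {d : G}
    (hd : d ∈ zpowers u) (e : g * δ * g⁻¹ = δ * (d * d)) (e' : g * (d * d) * g⁻¹ = (d * d)⁻¹) :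
    ∃ c ∈ zpowers u, g * (δ * c) * g⁻¹ = δ * c ∨ g * (δ * c) * g⁻¹ = δ * c * t := by
  rcases aut2 (h.two_u hδ hu) h1 h2 with h3 | h3
  · refine ⟨1, one_mem _, ?_⟩
    rcases h.invol hδ hu ht (mul_mem hd hd) (by nth_rw 1 [← h3 d hd]; rw [e']; group) with h4 | h4
    · exact Or.inl (by rw [mul_one, e, h4, mul_one])
    · exact Or.inr (by rw [mul_one, e, h4])
  · refine ⟨d, hd, ?_⟩
    rw [← conj_mul, e]
    rcases h.sqrt hδ hu ht (conj_zp h1 hd) (inv_mem hd) (by rw [conj_mul, h3 d hd]; group) with h4 | h4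
    · exact Or.inl (by rw [h4]; group)
    · exact Or.inr (by rw [h4]; group)

end Pair

end Pre

/-- The conjugates of `t` in `T` are `t` and the elements of `δ ⟨u⟩`. -/
structure Cfg (t : G) (M : Subgroup G) (T : Sylow 2 G) (δ u : G) : Prop extends Pre t M T where
  dD : D t T δ
  dU : D t T (δ * u)
  tz : t ∈ zpowers u
  cls : ∀ ε, D t T ε → δ * ε ∈ zpowers u

theorem Pre.exists_cfg' [Finite G] (h : Pre t M T) (hδ : D t T δ) : ∃ δ u, Cfg t M T δ u := by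
  classical
  have := Fintype.ofFinite G
  obtain ⟨⟨δ, u⟩, hu, hmax'⟩ := (Finset.univ.filter fun p : G × G => D t T p.1 ∧ D t T (p.1 * p.2)).exists_max_image
    (fun p => orderOf p.2) ⟨(δ, t), by simpa using ⟨hδ, h.D_mul hδ⟩⟩
  simp only [Finset.mem_filter, Finset.mem_univ, true_and, Prod.forall, and_imp] at hu hmax'
  clear hδ
  obtain ⟨hδ, hu⟩ := hu
  have hmax := fun w => hmax' δ w hδ
  have u2 := h.two_u hδ hu
  have o2 : orderOf t = 2 := orderOf_eq_prime (by rw [pow_two, h.sq]) h.ne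
  have ht : t ∈ zpowers u := by
    obtain ⟨n, hn⟩ := u2.exists_inv fun e => by have := hmax t (h.D_mul hδ); rw [e, orderOf_one] at this; omega
    have z : u ^ n ∈ zpowers u := pow_mem (mem_zpowers u) n
    have z2 : u ^ n * u ^ n = 1 := by rw [← pow_two, ← hn, pow_orderOf_eq_one]
    have := inv_zp (h.inv_u hδ hu) z
    rw [inv_eq_of_mul_eq_one_right z2, mul_inv_eq_iff_eq_mul] at this
    rcases h.D_comm hδ (h.D_zp hδ hu z) (by rw [mul_assoc, ← this]) with e | e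
    · rw [mul_eq_left.1 e, orderOf_one] at hn; omega
    · exact mul_left_cancel e ▸ z
  -- no element of `δ ⟨u⟩ ⟨u⟩`-type has a square generating `⟨u⟩`
  have big : ∀ w, D t T (δ * w) → u ∉ zpowers (w * w) := fun w hw hm => by
    obtain ⟨k, hk⟩ := IsPGroup.iff_orderOf.1 (h.two_u hδ hw).isPGroup ⟨w, mem_zpowers w⟩
    rw [orderOf_mk] at hk
    have h1 := orderOf_dvd_of_mem_zpowers hm
    have h2 := hmax w hw
    have h3 : 2 ≤ orderOf u := o2 ▸ hmax t (h.D_mul hδ)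
    rcases k with - | k
    · have := Nat.le_of_dvd (orderOf_pos _) h1
      rw [orderOf_eq_one_iff.1 hk, mul_one, orderOf_one] at this
      omega
    · rw [← pow_two, orderOf_pow_of_dvd two_ne_zero (hk ▸ dvd_pow_self 2 k.succ_ne_zero), hk, pow_succ,
        Nat.mul_div_cancel _ two_pos] at h1
      have := Nat.le_of_dvd (by positivity) h1
      rw [hk, pow_succ] at h2
      have : 0 < 2 ^ k := by positivity
      omega
  refine ⟨δ, u, h, hδ, hu, ht, fun ε hε => ?_⟩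
  by_contra hn
  set Δ : Set G := {x | δ * x ∈ zpowers u} with hΔ
  have hDΔ : ∀ x ∈ Δ, D t T x := fun x hx => by
    have := h.D_zp hδ hu hx
    rwa [← mul_assoc, h.D_sq hδ, one_mul] at this
  obtain ⟨ε, hε, hN, hn⟩ : ∃ ε, D t T ε ∧ ε ∈ normalizer Δ ∧ ε ∉ Δ := by
    by_contra hc
    push Not at hc
    by_cases hT : (T : Subgroup G) ⊓ normalizer Δ = T
    · exact hn (hc ε hε (hT.ge hε.1).2)
    obtain ⟨g, hg, hg'⟩ := SetLike.exists_of_lt (lt_inf_normalizer_of_isPGroup T.isPGroup'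
      (lt_of_le_of_ne inf_le_left hT))
    refine hg' ⟨hg.1, Subgroup.mem_normalizer_fintype fun x hx => hc _ (h.D_conj (hDΔ x hx) hg.1) ?_⟩
    refine ((mem_normalizer_iff.1 hg.2 x).1 ⟨(hDΔ x hx).1, Subgroup.mem_normalizer_fintype fun z hz => ?_⟩).2
    have i1 := h.D_inv (hDΔ x hx)
    have e : δ * (x * z * x⁻¹) = δ * x * (δ * z)⁻¹ * (δ * x) := by
      rw [i1, mul_inv_rev, h.D_inv (hDΔ z hz)]; group
    exact show δ * (x * z * x⁻¹) ∈ zpowers u from e ▸ mul_mem (mul_mem hx (inv_mem hz)) hx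
  have mem : ∀ c ∈ zpowers u, δ * c ∈ Δ := fun c hc => by
    show δ * (δ * c) ∈ zpowers u
    rwa [← mul_assoc, h.D_sq hδ, one_mul]
  have hN' : ∀ x ∈ Δ, ε * x * ε⁻¹ ∈ Δ := fun x => (hN x).1
  have iδ := h.D_inv hδ
  have iε := h.D_inv hε
  have n1 : δ * (ε * δ * ε⁻¹) ∈ zpowers u := hN' δ (by simpa using mem 1 (one_mem _))
  have n2 : ε * u * ε⁻¹ ∈ zpowers u := by
    have := mul_mem (inv_mem n1) (hN' _ (mem u (mem_zpowers u)))
    rwa [show (δ * (ε * δ * ε⁻¹))⁻¹ * (δ * (ε * (δ * u) * ε⁻¹)) = ε * u * ε⁻¹ by group] at this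
  have ee : ∀ x, ε * (ε * x * ε⁻¹) * ε⁻¹ = x := fun x => by
    rw [show ε * (ε * x * ε⁻¹) * ε⁻¹ = (ε * ε) * x * (ε * ε)⁻¹ by group, h.D_sq hε]; group
  have dε : ∀ c, δ * (δ * c) = c := fun c => by rw [← mul_assoc, h.D_sq hδ, one_mul]
  rcases sq_or_gen u2 n1 with ⟨d, hd, e⟩ | e
  swap
  · exact big (δ * ε) (by rwa [dε]) (by rwa [iε, ← mul_assoc, ← mul_assoc, mul_assoc (δ * ε)] at e)
  have e1 : ε * δ * ε⁻¹ = δ * (d * d) := by rw [← e, dε]
  obtain ⟨c, hc, e2 | e2⟩ := h.even_case hδ hu ht n2 (ee u) hd e1 (by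
    rw [← e, ← conj_mul, ee, mul_inv_rev, iδ, conj_inv, iδ])
  · rcases h.D_comm (h.D_zp hδ hu hc) hε (mul_inv_eq_iff_eq_mul.1 e2) with e3 | e3
    · exact hn (e3 ▸ mem c hc)
    · exact hn (by rw [e3, mul_assoc]; exact mem _ (mul_mem hc ht))
  have hδ' := h.D_zp hδ hu hc
  have uu : u * u ≠ 1 := fun h2 => by
    have k1 := hmax' _ (δ * c * ε) hδ' (by rwa [← mul_assoc, h.D_sq hδ', one_mul])
    have k2 : orderOf u ≤ 2 := orderOf_le_of_pow_eq_one two_pos (by rwa [pow_two])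
    have k3 := orderOf_pos (δ * c * ε)
    have k4 : (δ * c * ε) ^ 2 = 1 := orderOf_dvd_iff_pow_eq_one.1 (by
      rcases show orderOf (δ * c * ε) = 1 ∨ orderOf (δ * c * ε) = 2 by omega with e | e <;> simp [e])
    rw [pow_two, mul_assoc (δ * c), ← mul_assoc ε] at k4
    nth_rw 2 [← iε] at k4
    rw [e2, ← mul_assoc, h.D_sq hδ', one_mul] at k4
    exact h.ne k4
  obtain ⟨a, ha, a2⟩ : ∃ a ∈ zpowers u, t = a * a := (sq_or_gen u2 ht).resolve_right fun e3 =>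
    uu ((mem_zp_invol h.sq e3).elim (fun e4 => by rw [e4, mul_one]) fun e4 => by rw [e4, h.sq])
  have ia : δ * c * a * (δ * c)⁻¹ = a⁻¹ := by
    rw [show δ * c * a * (δ * c)⁻¹ = δ * (c * a * c⁻¹) * δ⁻¹ by group, conj_of_comm (comm_zp hc ha)]
    exact inv_zp (h.inv_u hδ hu) ha
  generalize hc' : δ * c = δ' at e2 ia hδ'
  have tt := h.cen δ' hδ'.1
  rcases h.sqrt hδ hu ht (conj_zp n2 ha) ha (by rw [conj_mul, ← a2, h.conj_t hε.1]) with e3 | e3
  · refine h.D_nsq hδ' (x := ε * a) ?_ ?_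
    · have : a * δ' * a⁻¹ = δ' * t := by
        rw [← h.inv, a2, show a * δ' * a⁻¹ = δ' * (δ'⁻¹ * a * δ') * a⁻¹ by group]
        rw [h.D_inv hδ'] at ia ⊢
        rw [ia]; group
      rw [← mul_inv_eq_iff_eq_mul, show ε * a * δ' * (ε * a)⁻¹ = ε * (a * δ' * a⁻¹) * ε⁻¹ by group, this, ← conj_mul,
        e2, h.conj_t hε.1, mul_assoc, h.sq, mul_one]
    · rw [show ε * a * (ε * a) = ε * a * ε⁻¹ * (ε * ε) * a by group, e3, h.D_sq hε, mul_one, a2]
  · have hm : δ' * a ∈ Δ := by rw [← hc', mul_assoc]; exact mem _ (mul_mem hc ha)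
    rcases h.D_comm (hDΔ _ hm) hε (by
      rw [← mul_inv_eq_iff_eq_mul, ← conj_mul, e2, e3, show δ' * t * (a * t) = δ' * (t * a) * t by group,
        comm_zp ht ha, show δ' * (a * t) * t = δ' * a * (t * t) by group, h.sq, mul_one]) with e4 | e4
    · exact hn (e4 ▸ hm)
    · exact hn (by rw [e4, ← hc', mul_assoc, mul_assoc]; exact mem _ (mul_mem hc (mul_mem ha ht)))

theorem Cfg.change {δ' : G} (h : Cfg t M T δ u) (h' : D t T δ') : Cfg t M T δ' u := by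
  have e : ∀ x, δ * (δ * x) = x := fun x => by rw [← mul_assoc, h.D_sq h.dD, one_mul]
  refine ⟨h.toPre, h', ?_, h.tz, fun ε hε => ?_⟩
  · rw [← e δ', mul_assoc]; exact h.D_zp h.dD h.dU (mul_mem (h.cls _ h') (mem_zpowers u))
  · have := mul_mem (inv_mem (h.cls _ h')) (h.cls _ hε)
    rwa [mul_inv_rev, h.D_inv h', h.D_inv h.dD, mul_assoc, e] at this

theorem Pre.exists_cfg [Finite G] (h : Pre t M T) (hδ : D t T δ) : ∃ u, Cfg t M T δ u :=
  let ⟨_, u, H⟩ := h.exists_cfg' hδ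
  ⟨u, H.change hδ⟩

end CL.C148
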