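/-
Standard subgroups whose centralizer has cyclic Sylow 2-subgroups (S3148), abstract part 2: fusion of the elements of
the dihedral group, and the strongly closed quasi-dihedral subgroup.
-/
import Cfsg.Agent.TE.C148A

set_option autoImplicit false
set_option linter.unusedSectionVars false

open Cfsg Subgroup CL.Cit CL.Grp
open scoped Pointwise

namespace CL.C148

variable {G : Type*} [Group G] [Finite G] {u t x y a b c d f g p δ ε : G} {M : Subgroup G} {T : Sylow 2 G}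

theorem norm_zp (h : g * c * g⁻¹ ∈ zpowers c) : g ∈ normalizer (zpowers c : Set G) :=
  Subgroup.mem_normalizer_fintype fun _ hn => conj_zp h hn

/-- Extremal conjugation onto a cyclic normal subgroup of `T`. -/
theorem extremal (hc : ∀ p ∈ T, p * c * p⁻¹ ∈ zpowers c) (hf : IsConj c f) :
    ∃ k : G, k * f * k⁻¹ ∈ zpowers c ∧ ∀ q ∈ T, q * f * q⁻¹ ∈ zpowers f → k * q * k⁻¹ ∈ T := by
  obtain ⟨g, rfl⟩ := isConj_iff.1 hf
  obtain ⟨n, hn, hle⟩ := (isSylowIn_of_le T (H := normalizer (zpowers c : Set G)) fun p hp =>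
    norm_zp (hc p hp)).exists_conj_le
    (IsPGroup.conj_smul (T.isPGroup'.to_inf_left (K := normalizer (zpowers (g * c * g⁻¹) : Set G))) g⁻¹)
    ((conj_smul_le_iff _ _ _).2 fun q hq => norm_zp (by
      obtain ⟨i, hi⟩ := (mem_normalizer_iff.1 hq.2 _).1 (mem_zpowers _)
      simp only [conj_zpow] at hi
      exact ⟨i, by
        simp only []
        rw [show g⁻¹ * q * g⁻¹⁻¹ * c * (g⁻¹ * q * g⁻¹⁻¹)⁻¹ = g⁻¹ * (q * (g * c * g⁻¹) * q⁻¹) * g by group, ← hi]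
        group⟩))
  refine ⟨n * g⁻¹, ?_, fun q hq h => ?_⟩
  · have := (mem_normalizer_iff.1 hn c).1 (mem_zpowers c)
    rwa [show n * g⁻¹ * (g * c * g⁻¹) * (n * g⁻¹)⁻¹ = n * c * n⁻¹ by group]
  · have := (conj_smul_le_iff _ _ _).1 hle _ (conj_mem_conj_smul g⁻¹ (show q ∈ _ ⊓ _ from ⟨hq, norm_zp h⟩))
    rwa [show n * g⁻¹ * q * (n * g⁻¹)⁻¹ = n * (g⁻¹ * q * g⁻¹⁻¹) * n⁻¹ by group]

theorem conj_sq (h : g * d * g⁻¹ = d⁻¹) : IsConj g (g * (d * d)) :=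
  isConj_iff.2 ⟨d⁻¹, by rw [inv_inv]; nth_rw 1 [← h]; group⟩

theorem gen_gen (hu : Two u) (h1 : u ≠ 1) (hx : x ∈ zpowers u) (hy : y ∈ zpowers u) (hx' : u ∈ zpowers x)
    (hy' : u ∈ zpowers y) : ∃ d ∈ zpowers u, y = x * (d * d) := by
  have odd : ∀ i : ℤ, u ∈ zpowers (u ^ i) → Odd i := fun i ⟨k, hk⟩ => by
    refine Int.not_even_iff_odd.1 fun hi => h1 (eq_one_of_zpow hu ((hi.mul_right k).sub_odd odd_one) ?_)
    simp only [] at hk
    rw [zpow_sub, zpow_mul, hk]; simp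
  obtain ⟨i, rfl⟩ := hx
  obtain ⟨j, rfl⟩ := hy
  obtain ⟨k, rfl⟩ := odd i hx'
  obtain ⟨l, rfl⟩ := odd j hy'
  exact ⟨u ^ (l - k), ⟨_, rfl⟩, by simp only []; rw [← zpow_add, ← zpow_add]; congr 1; ring⟩

namespace Cfg

variable (h : Cfg t M T δ u)
include h

theorem zT (hc : c ∈ zpowers u) : c ∈ T := zpowers_le.2 (h.u_mem h.dD h.dU) hc

theorem two : Two u := h.two_u h.dD h.dU

theorem inv_c (hc : c ∈ zpowers u) : δ * c * δ⁻¹ = c⁻¹ := inv_zp (h.inv_u h.dD h.dU) hc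

theorem D_c (hc : c ∈ zpowers u) : D t T (δ * c) := h.D_zp h.dD h.dU hc

theorem δδ (x : G) : δ * (δ * x) = x := by rw [← mul_assoc, h.D_sq h.dD, one_mul]

theorem δinv : δ⁻¹ = δ := h.D_inv h.dD

theorem sqrt' (hx : x ∈ zpowers u) (hy : y ∈ zpowers u) (e : x * x = y * y) : x = y ∨ x = y * t :=
  h.sqrt h.dD h.dU h.tz hx hy e

theorem mv (hp : p ∈ T) : δ * (p * δ * p⁻¹) ∈ zpowers u := h.cls _ (h.D_conj h.dD hp)

theorem norm_u (hp : p ∈ T) : p * u * p⁻¹ ∈ zpowers u := by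
  have := mul_mem (inv_mem (h.mv hp)) (h.cls _ (h.D_conj h.dU hp))
  rwa [show (δ * (p * δ * p⁻¹))⁻¹ * (δ * (p * (δ * u) * p⁻¹)) = p * u * p⁻¹ by group] at this

theorem t_zp (hc : c ∈ zpowers u) (h1 : c ≠ 1) : t ∈ zpowers c :=
  (chain h.two h.tz hc).elim id fun e => ((mem_zp_invol h.sq e).resolve_left h1) ▸ mem_zpowers c

theorem ex (hc : ∀ p ∈ T, p * c * p⁻¹ ∈ zpowers c) (c2 : Two c) (ht : t ∈ zpowers c) (hf : IsConj c f)
    (ht' : t ∈ zpowers f) : ∃ k : G, k * f * k⁻¹ ∈ zpowers c ∧ k * t * k⁻¹ = t ∧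
      ∀ q ∈ T, q * f * q⁻¹ ∈ zpowers f → k * q * k⁻¹ ∈ T := by
  obtain ⟨k, h1, h2⟩ := extremal hc hf
  refine ⟨k, h1, (invol_zp c2 ht h.sq h.ne ?_ (by rw [conj_mul, h.sq]; simp)).resolve_left (by simpa using h.ne), h2⟩
  obtain ⟨i, rfl⟩ := ht'
  simp only [← conj_zpow]
  exact zpow_mem h1 i

theorem D_of_conj {k : G} (hk : k * t * k⁻¹ = t) (hε : D t T ε) (hT : k * ε * k⁻¹ ∈ T) : D t T (k * ε * k⁻¹) :=
  ⟨hT, isConj_conj hε.2.1 k, fun e => hε.2.2 (by simpa using e.trans hk.symm)⟩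

theorem n1 (hf : f ∈ T) (hc : c ∈ zpowers u) (hcf : IsConj c f) (ht : t ∈ zpowers f)
    (hn : δ * f * δ⁻¹ ∈ zpowers f) : f ∈ zpowers u := by
  have c1 : c ≠ 1 := fun e => h.ne (by rw [e, isConj_one_right] at hcf; simpa [hcf] using ht)
  obtain ⟨k, h1, h2, h3⟩ := h.ex (fun p hp => conj_zp_self (h.norm_u hp) hc) (two_zp h.two hc) (h.t_zp hc c1) hcf ht
  have h4 := (h.change (h.D_of_conj h2 h.dD (h3 δ h.dD.1 hn))).D_c (zpowers_le.2 hc h1)
  have h5 := h.D_of_conj (k := k⁻¹) (by nth_rw 1 [← h2]; group) h4 (by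
    simpa [mul_assoc] using mul_mem h.dD.1 hf)
  have := h.cls _ h5
  rwa [show k⁻¹ * (k * δ * k⁻¹ * (k * f * k⁻¹)) * k⁻¹⁻¹ = δ * f by group, h.δδ] at this

theorem n0 (a2 : a * a = t) (hf : f ∈ T) (hc : IsConj a f) : f * f = t := by
  by_contra hn
  obtain ⟨g, rfl⟩ := isConj_iff.1 hc
  exact h.not_sq (IsConj.refl t) (by rw [conj_mul, a2]; exact isConj_iff.2 ⟨g, rfl⟩) hn (h.cen _ hf) rfl

theorem n3 (ha : a ∈ zpowers u) (a2 : a * a = t) (hf : f ∈ T) (hc : IsConj a f) (hn : f ∉ zpowers u) :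
    f * u * f⁻¹ = u⁻¹ ∧ u ∈ zpowers (δ * (f * δ * f⁻¹)) := by
  have f2 := h.n0 a2 hf hc
  have ff : ∀ x ∈ T, f * (f * x * f⁻¹) * f⁻¹ = x := fun x hx => by
    rw [show f * (f * x * f⁻¹) * f⁻¹ = (f * f) * x * (f * f)⁻¹ by group, f2, conj_of_comm (h.cen x hx).symm]
  have e' : f * (δ * (f * δ * f⁻¹)) * f⁻¹ = (δ * (f * δ * f⁻¹))⁻¹ := by
    rw [← conj_mul, ff δ h.dD.1, mul_inv_rev, conj_inv, h.δinv]
  rcases sq_or_gen h.two (h.mv hf) with ⟨d, hd, e⟩ | e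
  swap
  · exact ⟨inv_zp e' e, e⟩
  obtain ⟨c, hc', e2⟩ := h.even_case h.dD h.dU h.tz (h.norm_u hf) (ff u (h.zT (mem_zpowers u))) hd
    (by rw [← e, h.δδ]) (e ▸ e')
  have hδ' := h.D_c hc'
  have tf : t ∈ zpowers f := f2 ▸ mul_mem (mem_zpowers f) (mem_zpowers f)
  refine absurd ((h.change hδ').n1 hf ha hc tf ?_) hn
  generalize δ * c = δ' at e2 hδ'
  rw [show δ' * f * δ'⁻¹ = δ' * (f * δ' * f⁻¹)⁻¹ * f by group]
  rcases e2 with e2 | e2 <;> rw [e2]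
  · simp
  · rw [mul_inv_rev, h.inv, ← mul_assoc, h.cen δ' hδ'.1]
    simpa using mul_mem tf (mem_zpowers f)

theorem n3' (ha : a ∈ zpowers u) (a2 : a * a = t) (hf : f ∈ T) (hc : IsConj a f) (hn : f ∉ zpowers u)
    (hd : d ∈ zpowers u) : IsConj a (f * d) := by
  obtain ⟨h1, h2⟩ := h.n3 ha a2 hf hc hn
  rcases sq_or_gen h.two hd with ⟨c, hc', rfl⟩ | e
  · exact hc.trans (conj_sq (inv_zp h1 hc'))
  have m := h.mv hf
  obtain ⟨c, hc', rfl⟩ := gen_gen h.two (fun e => h.ne (by simpa [e] using h.tz)) (inv_mem m) hd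
    (by rwa [zpowers_inv]) e
  have e1 : f * (δ * (f * δ * f⁻¹))⁻¹ = δ * f * δ⁻¹ := by
    have := h.cen δ h.dD.1
    rw [← h.n0 a2 hf hc] at this
    rw [mul_inv_rev, conj_inv, h.δinv, show f * (f * δ * f⁻¹ * δ) = f * f * δ * f⁻¹ * δ by group, ← this]; group
  rw [← mul_assoc]
  refine (hc.trans (isConj_iff.2 ⟨δ, e1.symm⟩)).trans (conj_sq ?_)
  rw [show ∀ m : G, f * m⁻¹ * c * (f * m⁻¹)⁻¹ = f * (m⁻¹ * c * m⁻¹⁻¹) * f⁻¹ from fun m => by group,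
    conj_of_comm (comm_zp (inv_mem m) hc'), inv_zp h1 hc']

theorem n4 (ha : a ∈ zpowers u) (a2 : a * a = t) (hb : b ∈ T) (hbc : IsConj a b) (hbn : b ∉ zpowers u) (hf : f ∈ T)
    (hc : IsConj a f) : f ∈ zpowers u ∨ b⁻¹ * f ∈ zpowers u := by
  by_cases hn : f ∈ zpowers u
  · exact Or.inl hn
  obtain ⟨h1, h2⟩ := h.n3 ha a2 hf hc hn
  obtain ⟨d, hd, e⟩ := gen_gen h.two (fun e => h.ne (by simpa [e] using h.tz)) (h.mv hf) (h.mv hb) h2
    (h.n3 ha a2 hb hbc hbn).2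
  have hc' := h.n3' ha a2 hf hc hn hd
  have hf' : f * d ∈ T := mul_mem hf (h.zT hd)
  have e1 : f * d * δ * (f * d)⁻¹ = b * δ * b⁻¹ := by
    have : d * δ * d⁻¹ = δ * (d * d)⁻¹ := by
      rw [show d * δ * d⁻¹ = δ * (δ⁻¹ * d * δ⁻¹⁻¹) * d⁻¹ by group, h.δinv, h.inv_c hd]; group
    rw [show f * d * δ * (f * d)⁻¹ = f * (d * δ * d⁻¹) * f⁻¹ by group, this, ← conj_mul,
      inv_zp h1 (inv_mem (mul_mem hd hd)), inv_inv, ← h.δδ (b * δ * b⁻¹), e,
      mul_assoc δ, h.δδ]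
  suffices b⁻¹ * (f * d) ∈ zpowers t from Or.inr (by
    simpa [mul_assoc] using mul_mem (zpowers_le.2 h.tz this) (inv_mem hd))
  generalize f * d = f' at hc' hf' e1
  by_contra hn'
  have eT : b⁻¹ * f' ∈ T := mul_mem (inv_mem hb) hf'
  have b2 := h.n0 a2 hb hbc
  have ie : b * (b⁻¹ * f') * b⁻¹ = (b⁻¹ * f')⁻¹ := by
    rw [eq_inv_iff_mul_eq_one, show b * (b⁻¹ * f') * b⁻¹ * (b⁻¹ * f') = f' * (b * b)⁻¹ * f' by group, b2, h.inv,
      h.cen f' hf', mul_assoc, h.n0 a2 hf' hc', h.sq]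
  have ce : b⁻¹ * f' * δ * (b⁻¹ * f')⁻¹ = δ := by
    rw [show b⁻¹ * f' * δ * (b⁻¹ * f')⁻¹ = b⁻¹ * (f' * δ * f'⁻¹) * b by group, e1]; group
  have be : b * (b⁻¹ * f') = f' := by group
  generalize b⁻¹ * f' = e at hn' eT ie ce be
  obtain ⟨n, n1, n2⟩ := (two_of_mem T.isPGroup' eT).exists_pow_notMem hn'
  have pz : ∀ k : ℕ, e ^ k ∈ zpowers e := fun k => pow_mem (mem_zpowers e) k
  have hq : IsConj a (b * e ^ n) := by
    rcases Nat.even_or_odd n with ⟨k, rfl⟩ | ⟨k, rfl⟩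
    · rw [pow_add]; exact hbc.trans (conj_sq (inv_zp ie (pz k)))
    · rw [pow_succ', two_mul, pow_add, ← mul_assoc, be]
      exact hc'.trans (conj_sq (inv_zp (by rw [← be, ← ie]; group) (pz k)))
  have s1 : e ^ n * e ^ n = 1 := (mem_zp_invol h.sq n2).resolve_right
    (h.D_nsq h.dD ((Commute.pow_left (mul_inv_eq_iff_eq_mul.1 ce) n).eq))
  have cb : b * e ^ n * b⁻¹ = e ^ n := by rw [inv_zp ie (pz n), inv_eq_of_mul_eq_one_right s1]
  have qT : b * e ^ n ∈ T := mul_mem hb (pow_mem eT n)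
  have cq : b * e ^ n * b * (b * e ^ n)⁻¹ = b := by
    nth_rw 1 [← cb]; group
  obtain ⟨k, k1, k2, k3⟩ := h.ex (fun p hp => conj_zp_self (h.norm_u hp) ha) (two_zp h.two ha)
    (a2 ▸ mul_mem (mem_zpowers a) (mem_zpowers a)) hbc (b2 ▸ mul_mem (mem_zpowers b) (mem_zpowers b))
  have k4 := k3 _ qT (by rw [cq]; exact mem_zpowers b)
  have k5 := zpowers_le.2 ha k1
  have k6 : k * b * k⁻¹ * (k * b * k⁻¹) = t := by rw [conj_mul, b2, k2]
  have k7 : k * (b * e ^ n) * k⁻¹ ∈ zpowers u := by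
    by_contra hn
    have := inv_zp (h.n3 ha a2 k4 (isConj_conj hq k) hn).1 k5
    rw [show ∀ q : G, k * q * k⁻¹ * (k * b * k⁻¹) * (k * q * k⁻¹)⁻¹ = k * (q * b * q⁻¹) * k⁻¹ from fun q => by group,
      cq, eq_inv_iff_mul_eq_one, k6] at this
    exact h.ne this
  refine n1 ?_
  rcases h.sqrt' k7 k5 ((h.n0 a2 k4 (isConj_conj hq k)).trans k6.symm) with e2 | e2
  · rw [show e ^ n = 1 by simpa using e2]; exact one_mem _
  · rw [← k2, conj_mul] at e2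
    rw [show e ^ n = t by simpa using e2]; exact mem_zpowers t

theorem n6 (hf : f ∈ T) (h2 : f * f ∈ zpowers u) (h4 : f * f * (f * f) ≠ 1) : δ * f * δ⁻¹ ∈ zpowers f := by
  have m := h.mv hf
  have wf : f * f ∈ zpowers f := mul_mem (mem_zpowers f) (mem_zpowers f)
  suffices δ * (f * δ * f⁻¹) ∈ zpowers (f * f) by
    have := mul_mem (zpowers_le.2 wf this) (mem_zpowers f)
    rw [h.δinv]; simpa [mul_assoc] using this
  have cw : f * (f * f) * f⁻¹ = f * f := by group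
  have e1 : f * (δ * (f * δ * f⁻¹)) * f⁻¹ = (δ * (f * δ * f⁻¹))⁻¹ * (f * f * (f * f))⁻¹ := by
    have := h.inv_c h2
    rw [h.δinv] at this
    rw [mul_inv_rev, conj_inv, h.δinv, mul_inv_rev (f * f)]
    nth_rw 1 [← this]
    rw [show f * δ * f⁻¹ * δ * (δ * (f * f) * δ * (f * f)⁻¹) = f * δ * f⁻¹ * (δ * δ) * (f * f) * δ * (f * f)⁻¹ by group,
      h.D_sq h.dD]; group
  generalize δ * (f * δ * f⁻¹) = m' at m e1
  rcases aut2 h.two (h.norm_u hf) (by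
    rw [show f * (f * u * f⁻¹) * f⁻¹ = f * f * u * (f * f)⁻¹ by group, conj_of_comm (comm_zp h2 (mem_zpowers u))])
    with h3 | h3
  · generalize f * f = w at h2 h4 e1
    have e2 := h3 _ m
    rw [← conj_mul, e1] at e2
    have c : Commute m' w := comm_zp m h2
    have e3 : (m' * w) ^ 4 = 1 := by
      have c2 : Commute m'⁻¹ (w * w)⁻¹ := (c.mul_right c).inv_inv
      rw [← pow_two, c2.mul_pow, ← eq_inv_mul_iff_mul_eq] at e2
      rw [c.mul_pow, show w ^ 4 = ((w * w)⁻¹ ^ 2)⁻¹ by group, e2]; group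
    rw [← mul_mem_cancel_right (mem_zpowers w)]
    rcases chain h.two (mul_mem m h2) h2 with e | e
    · exact e
    rcases sq_or_gen (two_zp h.two (mul_mem m h2)) e with ⟨d, ⟨i, rfl⟩, e'⟩ | e'
    · refine absurd ?_ h4
      have : ∀ z : G, z * z * (z * z) = z ^ 4 := fun z => by simp only [pow_succ, pow_zero, one_mul, mul_assoc]
      generalize m' * w = z at e' e3
      rw [e', this, ← zpow_natCast, ← zpow_mul, mul_comm, zpow_mul, zpow_natCast, e3, one_zpow]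
    · exact e'
  · rcases sq_or_gen h.two h2 with ⟨d, hd, e⟩ | e
    · have := h3 d hd
      rw [← e, cw, eq_inv_iff_mul_eq_one] at this
      exact absurd this h4
    · exact zpowers_le.2 e m

theorem step (hf : f ∈ T) (hc : c ∈ zpowers u) (hcf : IsConj c f) (h2 : f * f ∈ zpowers u)
    (h4 : f * f * (f * f) ≠ 1) : f ∈ zpowers u :=
  h.n1 hf hc hcf (zpowers_le.2 (mul_mem (mem_zpowers f) (mem_zpowers f)) (h.t_zp h2 fun e => h4 (by rw [e, mul_one])))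
    (h.n6 hf h2 h4)

theorem sq4 (hc : c ∈ zpowers u) (hf : f ∈ T) (hcf : IsConj c (f * f)) (h4 : f * f * (f * f) ≠ 1)
    (h8 : f * f * (f * f) * (f * f * (f * f)) = 1) : f * f ∈ zpowers u := by
  by_contra hn
  have c2 : c * c = t := by
    obtain ⟨g, hg⟩ := isConj_iff.1 hcf
    rw [← hg, conj_mul] at h4 h8
    rw [conj_mul] at h8
    exact (h.invol h.dD h.dU h.tz (mul_mem hc hc) (by simpa using h8)).resolve_left fun e => h4 (by simp [e])
  have e := inv_zp (h.n3 hc c2 (mul_mem hf hf) hcf hn).1 hc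
  rw [show f * f * c * (f * f)⁻¹ = f * (f * c * f⁻¹) * f⁻¹ by group] at e
  have e' : f * (f * c * f⁻¹) * f⁻¹ = c := by
    rcases h.sqrt' (conj_zp (h.norm_u hf) hc) hc (by rw [conj_mul, c2, h.conj_t hf]) with e1 | e1
    · rw [e1, e1]
    · rw [e1, ← conj_mul, e1, h.conj_t hf, mul_assoc, h.sq, mul_one]
  rw [e', eq_inv_iff_mul_eq_one, c2] at e
  exact h.ne e

theorem n2 (hf : f ∈ T) (hc : c ∈ zpowers u) (hcf : IsConj c f) (h4 : f * f * (f * f) ≠ 1) : f ∈ zpowers u := by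
  obtain ⟨n, hn⟩ := two_of_mem T.isPGroup' hf
  induction n generalizing f c with
  | zero => exact absurd (by simp [show f = 1 by simpa using hn]) h4
  | succ n ih =>
    have h2 : IsConj (c * c) (f * f) := by
      obtain ⟨g, rfl⟩ := isConj_iff.1 hcf
      exact isConj_iff.2 ⟨g, (conj_mul ..).symm⟩
    refine h.step hf hc hcf ?_ h4
    by_cases h8 : f * f * (f * f) * (f * f * (f * f)) = 1
    · exact h.sq4 (mul_mem hc hc) hf h2 h4 h8
    · exact ih (mul_mem hf hf) (mul_mem hc hc) h2 h8 (by rw [← pow_two, ← pow_mul, ← pow_succ', hn])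

theorem sq_mem (hf : f ∈ T) (hc : c ∈ zpowers u) (hcf : IsConj c (f * f)) (h4 : f * f * (f * f) ≠ 1) :
    f * f ∈ zpowers u := by
  by_cases h8 : f * f * (f * f) * (f * f * (f * f)) = 1
  · exact h.sq4 hc hf hcf h4 h8
  · exact h.n2 (mul_mem hf hf) hc hcf h8

/-- A conjugate of `c ∈ ⟨u⟩` with the same square, other than `c` and `c t`. -/
theorem exists_b (hc : c ∈ zpowers u) (hf : f ∈ T) (hcf : IsConj c f) (e : f * f = c * c) (c1 : c ≠ 1) (ct : c ≠ t)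
    (h1 : f ≠ c) (h2 : f ≠ c * t) : c * c = t ∧ f ∉ zpowers u := by
  have hn : f ∉ zpowers u := fun hm => (h.sqrt' hm hc e).elim h1 h2
  refine ⟨(h.invol h.dD h.dU h.tz (mul_mem hc hc) ?_).resolve_left fun e' =>
    (h.invol h.dD h.dU h.tz hc e').elim c1 ct, hn⟩
  by_contra h4
  exact hn (h.step hf hc hcf (e ▸ mul_mem hc hc) (e ▸ h4))

end Cfg

end CL.C148
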